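import Mathlib
import Cfsg.Agent.Base

/-! Fixed point counts for groups of odd order acting on an elementary abelian 2-group. -/

set_option autoImplicit false
set_option linter.unusedSectionVars false

namespace H68Q
open Subgroup

variable {V : Type*} [CommGroup V] {p : ℕ} {a x y w s t : MulAut V} {U : Subgroup V}

/-- fixed points -/
def fx (x : MulAut V) : Subgroup V where
  carrier := {v | x v = v}
  mul_mem' := fun {u v} hu hv => by
    simp only [Set.mem_ofPred_eq] at *; rw [map_mul, hu, hv]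
  one_mem' := map_one x
  inv_mem' := fun {u} hu => by simp only [Set.mem_ofPred_eq] at *; rw [map_inv, hu]

theorem mem_fx {v : V} : v ∈ fx x ↔ x v = v := Iff.rfl

/-- the commutator map -/
def cm (x : MulAut V) : V →* V where
  toFun v := v⁻¹ * x v
  map_one' := by simp
  map_mul' u v := by rw [map_mul, mul_inv, mul_mul_mul_comm]

theorem cm_apply (v : V) : cm x v = v⁻¹ * x v := rfl

theorem cm_eq_one {v : V} : cm x v = 1 ↔ x v = v := by
  rw [cm_apply, inv_mul_eq_one, eq_comm]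

/-- `x` leaves `U` invariant -/
def Iv (x : MulAut V) (U : Subgroup V) : Prop := ∀ u ∈ U, x u ∈ U

/-- `x` has no fixed point on `U` -/
def Fp (x : MulAut V) (U : Subgroup V) : Prop := ∀ u ∈ U, x u = u → u = 1

theorem Iv.cm (h : Iv x U) {u : V} (hu : u ∈ U) : cm x u ∈ U := mul_mem (inv_mem hu) (h u hu)

theorem Iv.mul (h : Iv x U) (h' : Iv y U) : Iv (x * y) U := fun u hu => h _ (h' u hu)

theorem Iv.pow (h : Iv x U) (n : ℕ) : Iv (x ^ n) U := by
  induction n with
  | zero => exact fun u hu => by simpa using hu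
  | succ n ih => rw [pow_succ]; exact ih.mul h

theorem Iv.inf {W : Subgroup V} (h : Iv x U) (h' : Iv x W) : Iv x (U ⊓ W) :=
  fun u hu => ⟨h u hu.1, h' u hu.2⟩

theorem comm_apply (h : Commute x y) (v : V) : x (y v) = y (x v) := by
  rw [← MulAut.mul_apply, h.eq, MulAut.mul_apply]

theorem iv_fx (h : Commute x y) : Iv x (fx y) := fun u hu => by
  rw [mem_fx, ← comm_apply h, mem_fx.1 hu]

theorem fx_pow {v : V} (h : x v = v) (n : ℕ) : (x ^ n) v = v := by
  induction n with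
  | zero => rfl
  | succ n ih => rw [pow_succ, MulAut.mul_apply, h, ih]

theorem fx_inv {v : V} (h : x v = v) : x⁻¹ v = v := by
  conv_lhs => rw [← h]
  exact x.symm_apply_apply v

theorem fx_zpowers {v : V} (h : x v = v) (hy : y ∈ zpowers x) : y v = v := by
  exact (zpowers_le (H := MulAction.stabilizer (MulAut V) v)).2 h hy

theorem fx_of_pow {k : ℕ} (hx : x ^ p = 1) (hk : k.Coprime p) {v : V} (h : (x ^ k) v = v) : x v = v := by
  obtain ⟨m, hm⟩ := exists_pow_eq_self_of_coprime (x := x)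
    (Nat.Coprime.coprime_dvd_right (orderOf_dvd_of_pow_eq_one hx) hk)
  rw [← hm]; exact fx_pow h m

theorem iv_fx_inv (h : a * x * a⁻¹ = x⁻¹) : Iv a (fx x) := fun u hu => by
  have e : x * a = a * x⁻¹ := by
    have : x = a * x⁻¹ * a⁻¹ := by rw [← conj_inv, h, inv_inv]
    conv_lhs => rw [this]
    group
  rw [mem_fx, ← MulAut.mul_apply, e, MulAut.mul_apply, fx_inv hu]

theorem map_fx (g x : MulAut V) : (fx x).map g.toMonoidHom = fx (g * x * g⁻¹) := by
  ext v
  constructor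
  · rintro ⟨u, hu, rfl⟩
    simp [mem_fx, mem_fx.1 hu]
  · intro h
    refine ⟨g⁻¹ v, g.injective ?_, by simp⟩
    simpa [mem_fx] using h

/-- two conjugate involutions -/
theorem dih (ha : a * a = 1) (h : a * x * a⁻¹ = x⁻¹) (hx : x ^ p = 1) (hp : Odd p) {v : V} (h1 : a v = v)
    (h2 : (x * a * x⁻¹) v = v) : x v = v := by
  have e : x * a * x⁻¹ * a = x ^ 2 := by
    have i : a⁻¹ = a := inv_eq_of_mul_eq_one_right ha
    have : a * x⁻¹ * a⁻¹ = x := by rw [← conj_inv, h, inv_inv]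
    rw [i] at this
    calc x * a * x⁻¹ * a = x * (a * x⁻¹ * a) := by group
      _ = x ^ 2 := by rw [this, sq]
  refine fx_of_pow hx (Nat.coprime_two_left.2 hp) ?_
  rw [← e, MulAut.mul_apply, h1, h2]

variable [Finite V]

theorem index_dih (ha : a * a = 1) (h : a * x * a⁻¹ = x⁻¹) (hx : x ^ p = 1) (hp : Odd p) :
    (fx x).index ≤ (fx a).index ^ 2 := by
  have e : (fx (x * a * x⁻¹)).index = (fx a).index := by
    rw [← map_fx]; exact index_map_equiv _ x
  calc (fx x).index ≤ (fx a ⊓ fx (x * a * x⁻¹)).index :=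
        index_antitone fun v hv => dih ha h hx hp hv.1 hv.2
    _ ≤ _ := by rw [sq]; exact index_inf_le.trans (by rw [e])

theorem card_le_index (h : Fp x U) : Nat.card U ≤ (fx x).index :=
  Nat.card_le_card_of_injective ((QuotientGroup.mk' (fx x)).comp U.subtype)
    ((injective_iff_map_eq_one _).2 fun u hu => Subtype.ext (h u u.2 ((QuotientGroup.eq_one_iff _).1 hu)))

theorem card_sq (hV : ∀ v : V, v * v = 1) (ha : a * a = 1) (h : a * x * a⁻¹ = x⁻¹) (hx : x ^ p = 1)
    (hp : Odd p) (ia : Iv a U) (ix : Iv x U) (f : Fp x U) :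
    Nat.card U = Nat.card (U ⊓ fx a : Subgroup V) ^ 2 := by
  apply le_antisymm
  · let φ : U →* (U ⊓ fx a : Subgroup V) := ((cm a).comp U.subtype).codRestrict _ fun u => ⟨ia.cm u.2, by
      change a ((u : V)⁻¹ * a u) = (u : V)⁻¹ * a u
      rw [map_mul, map_inv, show a (a u) = (a * a) u from rfl, ha, MulAut.one_apply, mul_comm,
        inv_eq_of_mul_eq_one_right (hV _), inv_eq_of_mul_eq_one_right (hV _)]⟩
    rw [← φ.ker.card_mul_index, index_ker, sq]
    refine Nat.mul_le_mul (Nat.card_le_card_of_injective (fun u => (⟨u.1.1, u.1.2,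
      cm_eq_one.1 (congrArg Subtype.val u.2)⟩ : (U ⊓ fx a : Subgroup V))) fun u v e =>
        Subtype.ext (Subtype.ext (congrArg Subtype.val e :))) (card_le_card_group _)
  · rw [sq, ← Nat.card_prod]
    let ψ : (U ⊓ fx a : Subgroup V) × (U ⊓ fx a : Subgroup V) →* U :=
      ((Subgroup.subtype _).coprod (x.toMonoidHom.comp (Subgroup.subtype _))).codRestrict _
        fun u => mul_mem u.1.2.1 (ix _ u.2.2.1)
    refine Nat.card_le_card_of_injective ψ ((injective_iff_map_eq_one _).2 fun u hu => ?_)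
    have e : (u.1 : V) * x u.2 = 1 := congrArg Subtype.val hu
    have e1 : (u.1 : V) = x u.2 := by rw [eq_inv_of_mul_eq_one_left e, inv_eq_of_mul_eq_one_right (hV _)]
    have e2 : (u.1 : V) = 1 := f _ u.1.2.1 (dih ha h hx hp u.1.2.2 (by
      rw [e1]; simp [mem_fx.1 u.2.2.2]))
    rw [e2, one_mul, map_eq_one_iff _ x.injective] at e
    exact Prod.ext (Subtype.ext e2) (Subtype.ext e)

theorem card_mod [hp : Fact p.Prime] (hx : x ^ p = 1) (ix : Iv x U) (f : Fp x U) : Nat.card U ≡ 1 [MOD p] := by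
  classical
  have := Fintype.ofFinite U
  let g : Function.End U := fun u => ⟨x u, ix u u.2⟩
  have hg : ∀ n (u : U), ((g ^ n) u : V) = (x ^ n) u := fun n => by
    induction n with
    | zero => exact fun u => rfl
    | succ n ih => exact fun u => by rw [pow_succ, pow_succ, MulAut.mul_apply]; exact ih (g u)
  have h := Equiv.Perm.card_fixedPoints_modEq (f := g) (p := p) (n := 1)
    (funext fun u => Subtype.ext (by rw [pow_one, hg, hx]; rfl))
  have h1 : Fintype.card (Function.fixedPoints g) = 1 := Fintype.card_eq_one_iff.2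
    ⟨⟨1, Subtype.ext (map_one x)⟩, fun u => Subtype.ext (Subtype.ext (f _ u.1.2 (congrArg Subtype.val u.2)))⟩
  rwa [h1, ← Nat.card_eq_fintype_card] at h

theorem card_two (hV : ∀ v : V, v * v = 1) (U : Subgroup V) : ∃ k, Nat.card U = 2 ^ k :=
  (show IsPGroup 2 U from fun v => ⟨1, Subtype.ext (by simpa [sq] using hV v)⟩).exists_card_eq

theorem num {k : ℕ} (hp : p.Prime) (h5 : 5 ≤ p) (h : 2 ^ k ≡ 1 [MOD p]) (h1 : 2 ^ k ≠ 1) :
    3 ≤ k ∧ (p = 5 → 4 ≤ k) ∧ (p ≠ 5 → Even k → 6 ≤ k) := by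
  have d := (Nat.modEq_iff_dvd' Nat.one_le_two_pow).1 h.symm
  by_cases k6 : 6 ≤ k
  · omega
  have k0 : k ≠ 0 := by rintro rfl; simp at h1
  have k5 : k ≤ 5 := by omega
  interval_cases k
  · simp at k0
  all_goals
    have := Nat.le_of_dvd (by norm_num) d
    norm_num at this d ⊢
    try interval_cases p <;> simp_all <;> norm_num at hp

variable [hp : Fact p.Prime]

theorem card_ge (hV : ∀ v : V, v * v = 1) (h5 : 5 ≤ p) (hx : x ^ p = 1) (ix : Iv x U) (f : Fp x U)
    (h1 : U ≠ ⊥) : 8 ≤ Nat.card U ∧ (p = 5 → 16 ≤ Nat.card U) := by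
  obtain ⟨k, hk⟩ := card_two hV U
  have := num hp.out h5 (hk ▸ card_mod hx ix f) (hk ▸ fun e => h1 (card_eq_one.1 e))
  rw [hk]
  exact ⟨Nat.pow_le_pow_right (n := 2) two_pos this.1, fun e => Nat.pow_le_pow_right (n := 2) two_pos (this.2.1 e)⟩

theorem card_ge' (hV : ∀ v : V, v * v = 1) (h5 : 5 ≤ p) (h : p ≠ 5) (ha : a * a = 1)
    (hi : a * x * a⁻¹ = x⁻¹) (hx : x ^ p = 1) (ia : Iv a U) (ix : Iv x U) (f : Fp x U)
    (h1 : U ≠ ⊥) : 64 ≤ Nat.card U := by
  obtain ⟨k, hk⟩ := card_two hV U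
  obtain ⟨l, hl⟩ := card_two hV (U ⊓ fx a)
  have e := card_sq hV ha hi hx (hp.out.odd_of_ne_two (by omega)) ia ix f
  rw [hk, hl, ← pow_mul, Nat.pow_right_inj one_lt_two] at e
  have := num hp.out h5 (hk ▸ card_mod hx ix f) (hk ▸ fun e => h1 (card_eq_one.1 e))
  rw [hk]
  exact Nat.pow_le_pow_right (n := 2) two_pos (this.2.2 h ⟨l, by omega⟩)

omit hp

/-- no common fixed point on `U` -/
def R (U : Subgroup V) (s t : MulAut V) : Prop := ∀ u ∈ U, s u = u → t u = u → u = 1

theorem R.symm (h : R U s t) : R U t s := fun u hu a b => h u hu b a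

theorem R.fp (h : R U s t) : Fp t (U ⊓ fx s) := fun u hu b => h u hu.1 hu.2 b

theorem k2 (ix : Iv x U) (c1 : Commute x s) (c2 : Commute x t) (r1 : R U s x) (r2 : R U t x) (r : R U s t)
    {u v : V} (hu : u ∈ U ⊓ fx s) (hv : v ∈ U ⊓ fx t) (h : x (u * v) = u * v) : u = 1 ∧ v = 1 := by
  have e : cm x u * cm x v = 1 := by rw [← map_mul, cm_eq_one, h]
  have m1 := (ix.inf (iv_fx c1)).cm hu
  have m2 := (ix.inf (iv_fx c2)).cm hv
  have e1 : cm x u = 1 := r _ m1.1 m1.2 (by rw [eq_inv_of_mul_eq_one_left e]; exact (fx t).inv_mem m2.2)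
  rw [e1, one_mul] at e
  exact ⟨r1 u hu.1 hu.2 (cm_eq_one.1 e1), r2 v hv.1 hv.2 (cm_eq_one.1 e)⟩

theorem card2 (ix : Iv x U) (c1 : Commute x s) (c2 : Commute x t) (r1 : R U s x) (r2 : R U t x)
    (r : R U s t) : Nat.card (U ⊓ fx s : Subgroup V) * Nat.card (U ⊓ fx t : Subgroup V) ≤ (fx x).index := by
  rw [← Nat.card_prod]
  refine Nat.card_le_card_of_injective ((QuotientGroup.mk' (fx x)).comp
    ((Subgroup.subtype _).coprod (Subgroup.subtype _))) ((injective_iff_map_eq_one _).2 fun u hu => ?_)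
  have := k2 ix c1 c2 r1 r2 r u.1.2 u.2.2 ((QuotientGroup.eq_one_iff _).1 hu)
  exact Prod.ext (Subtype.ext this.1) (Subtype.ext this.2)

theorem card3 (ix : Iv x U) (iy : Iv y U) (c0 : Commute x y) (c1 : Commute x s) (c2 : Commute x t)
    (c3 : Commute y s) (c4 : Commute y t) (r0 : R U y x) (r1 : R U s x) (r2 : R U t x)
    (r3 : R U s y) (r4 : R U t y) (r : R U s t) : Nat.card (U ⊓ fx y : Subgroup V) *
      (Nat.card (U ⊓ fx s : Subgroup V) * Nat.card (U ⊓ fx t : Subgroup V)) ≤ (fx x).index := by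
  rw [← Nat.card_prod, ← Nat.card_prod]
  refine Nat.card_le_card_of_injective ((QuotientGroup.mk' (fx x)).comp ((Subgroup.subtype _).coprod
    ((Subgroup.subtype _).coprod (Subgroup.subtype _)))) ((injective_iff_map_eq_one _).2 ?_)
  rintro ⟨⟨u, hu⟩, ⟨v, hv⟩, ⟨w, hw⟩⟩ h
  have e : x (u * (v * w)) = u * (v * w) := (QuotientGroup.eq_one_iff _).1 h
  have e1 : x (cm y v * cm y w) = cm y v * cm y w := by
    have : cm y v * cm y w = cm y (u * (v * w)) := by rw [map_mul, map_mul, cm_eq_one.2 hu.2, one_mul]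
    rw [this, cm_apply, map_mul, map_inv, comm_apply c0, e]
  have e2 := k2 ix c1 c2 r1 r2 r ((iy.inf (iv_fx c3)).cm hv) ((iy.inf (iv_fx c4)).cm hw) e1
  obtain rfl := r3 v hv.1 hv.2 (cm_eq_one.1 e2.1)
  obtain rfl := r4 w hw.1 hw.2 (cm_eq_one.1 e2.2)
  rw [mul_one, mul_one] at e
  obtain rfl := r0 u hu.1 hu.2 e
  rfl

theorem norm_one (hy : y ^ p = 1) (iy : Iv y U) (f : Fp y U) {u : V} (hu : u ∈ U) :
    ∏ i ∈ Finset.range p, (y ^ i) u = 1 := by
  refine f _ (prod_mem fun i _ => iy.pow i u hu) ?_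
  have h1 := Finset.prod_range_succ (fun i => (y ^ i) u) p
  have h2 := Finset.prod_range_succ' (fun i => (y ^ i) u) p
  rw [h2, hy, pow_zero] at h1
  rw [map_prod, ← mul_right_cancel h1]
  exact Finset.prod_congr rfl fun i _ => by rw [pow_succ', MulAut.mul_apply]

/-- some line of an elementary abelian group of rank two has fixed points -/
theorem line (hV : ∀ v : V, v * v = 1) (hp : p.Prime) (h2 : p ≠ 2) (hx : x ^ p = 1) (hw : w ^ p = 1)
    (c : Commute x w) (ix : Iv x U) (iw : Iv w U) (f : Fp w U) (h1 : U ≠ ⊥) :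
    ∃ i : ℕ, U ⊓ fx (x * w ^ i) ≠ ⊥ := by
  by_contra! h
  refine h1 (eq_bot_iff.2 fun u hu => ?_)
  have e1 : ∏ i ∈ Finset.range p, ∏ j ∈ Finset.range p, ((x * w ^ i) ^ j) u = 1 :=
    Finset.prod_eq_one fun i _ => norm_one (by rw [(c.pow_right i).mul_pow, hx, ← pow_mul, mul_comm i, pow_mul,
      hw, one_pow, one_mul]) (ix.mul (iw.pow i)) (fun v hv e => (h i).le ⟨hv, e⟩) hu
  rw [Finset.prod_comm, Finset.prod_eq_single 0 (fun j hj j0 => ?_) (fun e => (e (Finset.mem_range.2 hp.pos)).elim)]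
    at e1
  · simp only [pow_zero, MulAut.one_apply, Finset.prod_const, Finset.card_range] at e1
    obtain ⟨k, hk⟩ := hp.odd_of_ne_two h2
    rwa [hk, pow_succ, pow_mul, sq, hV, one_pow, one_mul] at e1
  · have e2 := norm_one (p := p) (y := w ^ j) (by rw [← pow_mul, mul_comm, pow_mul, hw, one_pow]) (iw.pow j)
      (fun v hv e => f v hv (fx_of_pow hw (Nat.coprime_of_lt_prime j0 (Finset.mem_range.1 hj) hp).symm e)) hu
    rw [← map_one (x ^ j), ← e2, map_prod]
    exact Finset.prod_congr rfl fun i _ => by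
      rw [(c.pow_right i).mul_pow, MulAut.mul_apply, ← pow_mul, ← pow_mul, mul_comm]

/-- the kernel of the norm map -/
theorem exists_U (hV : ∀ v : V, v * v = 1) (E : Subgroup (MulAut V)) (hE : Odd (Nat.card E)) :
    ∃ U : Subgroup V, (∀ g ∈ normalizer (E : Set (MulAut V)), Iv g U) ∧
      (∀ u ∈ U, (∀ e ∈ E, e u = u) → u = 1) ∧ ∀ e ∈ E, ∀ v, cm e v ∈ U := by
  have := Fintype.ofFinite E
  let N : V →* V := ∏ e : E, (e : MulAut V).toMonoidHom
  have hN : ∀ v, N v = ∏ e : E, (e : MulAut V) v := fun v => MonoidHom.finsetProd_apply _ _ v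
  refine ⟨N.ker, fun g hg u hu => ?_, fun u hu h => ?_, fun e he v => ?_⟩
  · rw [MonoidHom.mem_ker, hN] at *
    rw [← map_one g, ← hu, map_prod]
    refine (Fintype.prod_equiv (E.normalizerMonoidHom ⟨g, hg⟩).toEquiv _ _ fun e => ?_).symm
    change g (e.1 u) = (g * e.1 * g⁻¹) (g u)
    simp
  · rw [MonoidHom.mem_ker, hN, Finset.prod_congr rfl fun e _ => h e.1 e.2, Finset.prod_const, Finset.card_univ,
      ← Nat.card_eq_fintype_card] at hu
    obtain ⟨k, hk⟩ := hE
    rwa [hk, pow_succ, pow_mul, sq, hV, one_pow, one_mul] at hu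
  · rw [MonoidHom.mem_ker, cm_apply, map_mul, map_inv, inv_mul_eq_one, hN, hN]
    exact (Fintype.prod_equiv (Equiv.mulRight (⟨e, he⟩ : E)) _ _ fun e => rfl).symm

end H68Q
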