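import Mathlib
import Cfsg.Agent.Base
import Cfsg.Agent.Lib.QT52.Mod
import Cfsg.Agent.Lib.BG4.Blackburn

/-! Small offenders normalizing a `p`-group of symplectic type and rank two. -/

set_option autoImplicit false
set_option linter.unusedSectionVars false

namespace H68Q
open Subgroup
open scoped commutatorElement

section Grp
variable {Γ : Type*} [Group Γ] {p : ℕ} {E A : Subgroup Γ} {a x y s t : Γ}

theorem cj_mem (ha : a ∈ normalizer (E : Set Γ)) (hy : y ∈ E) : a * y * a⁻¹ ∈ E :=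
  (mem_normalizer_iff.1 ha y).1 hy

theorem inv_elt (h : a * a = 1) (y : Γ) : a * (y⁻¹ * (a * y * a⁻¹)) * a⁻¹ = (y⁻¹ * (a * y * a⁻¹))⁻¹ := by
  have i : a⁻¹ = a := inv_eq_of_mul_eq_one_right h
  simp only [mul_inv_rev, inv_inv, i]
  calc a * (y⁻¹ * (a * y * a)) * a = a * y⁻¹ * a * y * (a * a) := by group
    _ = _ := by rw [h]; group

theorem cj_zpowers_inv (h : a * x * a⁻¹ = x⁻¹) (hy : y ∈ zpowers x) : a * y * a⁻¹ = y⁻¹ := by
  obtain ⟨k, rfl⟩ := hy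
  simp only [← conj_zpow, h, inv_zpow]

theorem cj_zpowers_fix (h : a * x * a⁻¹ = x) (hy : y ∈ zpowers x) : a * y * a⁻¹ = y := by
  obtain ⟨k, rfl⟩ := hy
  simp only [← conj_zpow, h]

theorem eq_one_of_inv (h2 : Odd p) (hx : x ^ p = 1) (h : x = x⁻¹) : x = 1 := by
  obtain ⟨k, rfl⟩ := h2
  rwa [pow_succ, pow_mul, sq, mul_eq_one_iff_eq_inv.2 h, one_pow, one_mul] at hx

variable [Finite Γ] [hp : Fact p.Prime]

theorem zp_symm (hs : s ^ p = 1) (ht : t ∈ zpowers s) (h1 : t ≠ 1) : s ∈ zpowers t := by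
  have h2 : s ≠ 1 := by rintro rfl; exact h1 (by simpa using ht)
  have h3 : t ^ p = 1 := by obtain ⟨k, rfl⟩ := ht; rw [← zpow_natCast, ← zpow_mul, mul_comm, zpow_mul]; simp [hs]
  exact (eq_of_le_of_card_ge (zpowers_le.2 ht) (by
    rw [Nat.card_zpowers, Nat.card_zpowers, orderOf_eq_prime hs h2, orderOf_eq_prime h3 h1])).ge (mem_zpowers s)

theorem norm_zp (h : a * x * a⁻¹ ∈ zpowers x) : a ∈ normalizer (zpowers x : Set Γ) :=
  mem_normalizer_fintype (by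
    rintro _ ⟨k, rfl⟩
    simp only [← conj_zpow]
    exact zpow_mem h k)

/-- elementary abelian of order `p ^ 2` -/
structure Ab (p : ℕ) (E : Subgroup Γ) : Prop where
  pw : ∀ e ∈ E, e ^ p = 1
  cm : ∀ s ∈ E, ∀ t ∈ E, Commute s t
  card : Nat.card E = p ^ 2

theorem Ab.card_zp (h : Ab p E) (hs : s ∈ E) (h1 : s ≠ 1) : Nat.card (zpowers s) = p := by
  rw [Nat.card_zpowers, orderOf_eq_prime (h.pw s hs) h1]

theorem Ab.gen (h : Ab p E) (hs : s ∈ E) (h1 : s ≠ 1) (ht : t ∈ E) (h2 : t ∉ zpowers s) :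
    zpowers s ⊔ zpowers t = E :=
  H48.sup_zpowers_eq_of_relIndex_dvd hp.out (zpowers_le.2 hs)
    (by rw [H48.relIndex_eq_of_card_eq_mul (zpowers_le.2 hs) (by rw [h.card, h.card_zp hs h1, sq])]) ht h2

theorem Ab.exists_out (h : Ab p E) (hs : s ∈ E) (h1 : s ≠ 1) : ∃ t ∈ E, t ∉ zpowers s := by
  by_contra! h2
  have := card_le_of_le (show E ≤ zpowers s from h2)
  rw [h.card, h.card_zp hs h1] at this
  nlinarith [hp.out.two_le]

theorem Ab.exists_ne (h : Ab p E) : ∃ s ∈ E, s ≠ 1 := by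
  by_contra! h2
  have := card_le_of_le (show E ≤ ⊥ from h2)
  rw [h.card, card_bot] at this
  nlinarith [hp.out.two_le]

/-- the elements of `E` on which `a` acts as `f` -/
theorem Ab.all_fix (h : Ab p E) (hs : s ∈ E) (h1 : s ≠ 1) (ht : t ∈ E) (h2 : t ∉ zpowers s)
    (e1 : a * s * a⁻¹ = s) (e2 : a * t * a⁻¹ = t) : ∀ e ∈ E, Commute a e := fun _ he =>
  (mem_centralizer_singleton_iff.1 ((h.gen hs h1 ht h2).ge.trans (sup_le
    (zpowers_le.2 (mem_centralizer_singleton_iff.2 (mul_inv_eq_iff_eq_mul.1 e1).symm))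
    (zpowers_le.2 (mem_centralizer_singleton_iff.2 (mul_inv_eq_iff_eq_mul.1 e2).symm))) he)).symm

theorem Ab.all_inv (h : Ab p E) (hs : s ∈ E) (h1 : s ≠ 1) (ht : t ∈ E) (h2 : t ∉ zpowers s)
    (e1 : a * s * a⁻¹ = s⁻¹) (e2 : a * t * a⁻¹ = t⁻¹) : ∀ e ∈ E, a * e * a⁻¹ = e⁻¹ := by
  let I : Subgroup Γ :=
    { carrier := {e | e ∈ E ∧ a * e * a⁻¹ = e⁻¹}
      mul_mem' := fun {u v} hu hv => ⟨mul_mem hu.1 hv.1, by
        rw [← conj_mul, hu.2, hv.2, (h.cm u hu.1 v hv.1).eq, mul_inv_rev]⟩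
      one_mem' := ⟨one_mem _, by simp⟩
      inv_mem' := fun {u} hu => ⟨inv_mem hu.1, by rw [← conj_inv, hu.2]⟩ }
  exact fun e he => ((h.gen hs h1 ht h2).ge.trans (sup_le (zpowers_le.2 (show s ∈ I from ⟨hs, e1⟩))
    (zpowers_le.2 (show t ∈ I from ⟨ht, e2⟩))) he).2

theorem pm (hx : x ^ p = 1) (ha : a * a = 1) (h : a * x * a⁻¹ ∈ zpowers x) :
    a * x * a⁻¹ = x ∨ a * x * a⁻¹ = x⁻¹ := by
  by_contra! hc
  have hv : x⁻¹ * (a * x * a⁻¹) ≠ 1 := fun e => hc.1 (inv_mul_eq_one.1 e).symm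
  exact hc.2 (cj_zpowers_inv (inv_elt ha x) (zp_symm hx (mul_mem (inv_mem (mem_zpowers x)) h) hv))

theorem Ab.dich (h : Ab p E) (h2 : Odd p) (hn : A ≤ normalizer (E : Set Γ)) (hA : ∀ a ∈ A, a * a = 1)
    (hf : ∀ a ∈ A, (∀ e ∈ E, Commute a e) → a = 1) :
    (∃ z ∈ A, ∀ e ∈ E, z * e * z⁻¹ = e⁻¹) ∨ Nat.card A ≤ 2 := by
  by_contra! hc
  obtain ⟨hc, h3⟩ := hc
  have cA : ∀ a ∈ A, ∀ b ∈ A, a * b = b * a := fun a ha b hb => by
    rw [← inv_eq_of_mul_eq_one_right (hA _ (mul_mem ha hb)), mul_inv_rev, inv_eq_of_mul_eq_one_right (hA a ha),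
      inv_eq_of_mul_eq_one_right (hA b hb)]
  obtain ⟨a, ha, a1⟩ : ∃ a ∈ A, a ≠ 1 := by
    by_contra! h4
    have := card_le_of_le (show A ≤ ⊥ from h4)
    rw [card_bot] at this; omega
  obtain ⟨y, hy, ey⟩ : ∃ y ∈ E, y⁻¹ * (a * y * a⁻¹) ≠ 1 := by
    by_contra! h4
    exact a1 (hf a ha fun e he => mul_inv_eq_iff_eq_mul.1 (inv_mul_eq_one.1 (h4 e he)).symm)
  obtain ⟨x, hx, x1, ex⟩ : ∃ x ∈ E, x ≠ 1 ∧ a * x * a⁻¹ = x⁻¹ :=
    ⟨_, mul_mem (inv_mem hy) (cj_mem (hn ha) hy), ey, inv_elt (hA a ha) y⟩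
  obtain ⟨c, hcE, c1, ec⟩ : ∃ c ∈ E, c ≠ 1 ∧ a * c * a⁻¹ = c := by
    obtain ⟨u, hu, eu⟩ := hc a ha
    refine ⟨u * (a * u * a⁻¹), mul_mem hu (cj_mem (hn ha) hu), fun e => eu (eq_inv_of_mul_eq_one_right e), ?_⟩
    rw [← conj_mul, (h.cm _ hu _ (cj_mem (hn ha) hu)).eq]
    congr 1
    calc a * (a * u * a⁻¹) * a⁻¹ = a * a * u * (a * a)⁻¹ := by group
      _ = u := by rw [hA a ha]; simp
  have hcx : c ∉ zpowers x := fun e => c1 (eq_one_of_inv h2 (h.pw c hcE) (ec.symm.trans (cj_zpowers_inv ex e)))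
  have hxc : x ∉ zpowers c := fun e => hcx (zp_symm (h.pw c hcE) e x1)
  have sw : ∀ b ∈ A, ∀ u, a * (b * u * b⁻¹) * a⁻¹ = b * (a * u * a⁻¹) * b⁻¹ := fun b hb u => by
    calc a * (b * u * b⁻¹) * a⁻¹ = (a * b) * u * (a * b)⁻¹ := by group
      _ = _ := by rw [cA a ha b hb]; group
  have mul : ∀ b u, a * b * u * (a * b)⁻¹ = a * (b * u * b⁻¹) * a⁻¹ := fun b u => by group
  have key : ∀ b ∈ A, b = 1 ∨ b = a := fun b hb => by
    have bx : b * x * b⁻¹ ∈ zpowers x := by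
      by_contra e
      obtain ⟨u, hu, eu⟩ := hc a ha
      exact eu (h.all_inv hx x1 (cj_mem (hn hb) hx) e ex (by rw [sw b hb, ex, conj_inv]) u hu)
    have bc : b * c * b⁻¹ ∈ zpowers c := by
      by_contra e
      exact a1 (hf a ha (h.all_fix hcE c1 (cj_mem (hn hb) hcE) e ec (by rw [sw b hb, ec])))
    rcases pm (h.pw x hx) (hA b hb) bx with e1 | e1 <;> rcases pm (h.pw c hcE) (hA b hb) bc with e2 | e2
    · exact .inl (hf b hb (h.all_fix hx x1 hcE hcx e1 e2))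
    · obtain ⟨u, hu, eu⟩ := hc (a * b) (mul_mem ha hb)
      exact (eu (h.all_inv hx x1 hcE hcx (by rw [mul, e1, ex]) (by rw [mul, e2, ← conj_inv, ec]) u hu)).elim
    · have := hf _ (mul_mem ha hb) (h.all_fix hx x1 hcE hcx (by rw [mul, e1, ← conj_inv, ex, inv_inv])
        (by rw [mul, e2, ec]))
      exact .inr ((eq_inv_of_mul_eq_one_right this).trans (inv_eq_of_mul_eq_one_right (hA a ha)))
    · obtain ⟨u, hu, eu⟩ := hc b hb
      exact (eu (h.all_inv hx x1 hcE hcx e1 e2 u hu)).elim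
  have : Nat.card A ≤ Nat.card ({1, a} : Set Γ) := Nat.card_mono (Set.toFinite _) fun b hb => key b hb
  rw [Nat.card_coe_set_eq, Set.ncard_pair a1.symm] at this
  omega

omit hp in
theorem cj_mod {r : ℕ} [Fact r.Prime] {K : Subgroup Γ} (hn : a ∈ normalizer (K : Set Γ))
    (h : ∀ e ∈ K, Commute (a ^ r) e) : Nat.card K ≡ Nat.card (K ⊓ centralizer {a} : Subgroup Γ) [MOD r] := by
  classical
  have := Fintype.ofFinite K
  let g : Function.End K := fun u => ⟨a * u * a⁻¹, cj_mem hn u.2⟩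
  have hg : ∀ n (u : K), ((g ^ n) u : Γ) = a ^ n * u * (a ^ n)⁻¹ := fun n => by
    induction n with
    | zero => exact fun u => by rw [pow_zero, pow_zero, one_mul, inv_one, mul_one]; rfl
    | succ n ih => exact fun u => by rw [pow_succ, pow_succ]; exact (ih (g u)).trans (by simp [g, mul_assoc])
  have h1 := Equiv.Perm.card_fixedPoints_modEq (f := g) (p := r) (n := 1)
    (funext fun u => Subtype.ext (by rw [pow_one, hg, (h u u.2).eq, mul_inv_cancel_right]; rfl))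
  rw [← Nat.card_eq_fintype_card, ← Nat.card_eq_fintype_card] at h1
  refine h1.trans (by
    rw [Nat.card_congr (⟨fun u => ⟨u.1.1, u.1.2, mem_centralizer_singleton_iff.2
      (mul_inv_eq_iff_eq_mul.1 (congrArg Subtype.val u.2 :)).symm⟩,
      fun u => ⟨⟨u.1, u.2.1⟩, Subtype.ext (mul_inv_eq_iff_eq_mul.2 (mem_centralizer_singleton_iff.1 u.2.2).symm)⟩,
      fun u => rfl, fun u => rfl⟩ : Function.fixedPoints g ≃ (K ⊓ centralizer {a} : Subgroup Γ))])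

omit hp in
/-- an automorphism of prime order `r ≠ 2, 5` of `E₂₅` fixes no line -/
theorem Ab.no_line {r : ℕ} (hr : r.Prime) (r2 : r ≠ 2) (r5 : r ≠ 5) (h : Ab 5 E)
    (hn : a ∈ normalizer (E : Set Γ)) (hc : ∀ e ∈ E, Commute (a ^ r) e) (hy : y ∈ E) (y1 : y ≠ 1)
    (hl : a * y * a⁻¹ ∈ zpowers y) : ∀ e ∈ E, Commute a e := by
  have := Fact.mk hr
  have := Fact.mk Nat.prime_five
  have nd : ∀ n, n ∣ 20 → ¬ r ∣ n := fun n hn e => by
    have h1 : r ∣ 2 ^ 2 * 5 := e.trans hn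
    rcases (Nat.Prime.dvd_mul hr).1 h1 with h2 | h2
    · exact r2 ((Nat.prime_dvd_prime_iff_eq hr Nat.prime_two).1 (hr.dvd_of_dvd_pow h2))
    · exact r5 ((Nat.prime_dvd_prime_iff_eq hr Nat.prime_five).1 h2)
  have h1 := cj_mod (r := r) (norm_zp hl) fun e he => hc e (zpowers_le.2 hy he)
  have h2 := cj_mod (r := r) hn hc
  have d1 := card_dvd_of_le (inf_le_left : zpowers y ⊓ centralizer {a} ≤ _)
  have d2 := card_dvd_of_le (inf_le_left : E ⊓ centralizer {a} ≤ _)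
  have l := card_le_of_le (inf_le_inf_right (centralizer {a}) (zpowers_le.2 hy))
  rw [h.card_zp hy y1] at h1 d1
  rw [h.card] at h2 d2
  rcases (Nat.dvd_prime Nat.prime_five).1 d1 with e | e
  · rw [e] at h1
    exact (nd 4 (by norm_num) ((Nat.modEq_iff_dvd' (by norm_num)).1 h1.symm)).elim
  obtain ⟨k, k2, hk⟩ := (Nat.dvd_prime_pow Nat.prime_five).1 d2
  rw [e, hk] at l
  rw [hk] at h2
  interval_cases k
  · omega
  · exact (nd 20 (by norm_num) ((Nat.modEq_iff_dvd' (by norm_num)).1 h2.symm)).elim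
  · exact fun e he => (mem_centralizer_singleton_iff.1
      ((eq_of_le_of_card_ge inf_le_left (by rw [hk, h.card])).ge he).2).symm

end Grp

variable {V : Type*} [CommGroup V] [Finite V] {p : ℕ} [hp : Fact p.Prime] {E A : Subgroup (MulAut V)}
  {a x y w s t : MulAut V} {U : Subgroup V}

theorem exists_U1 (hV : ∀ v : V, v * v = 1) (h2 : Odd p) (hw : w ^ p = 1) :
    ∃ U : Subgroup V, (∀ g, g * w * g⁻¹ ∈ zpowers w → Iv g U) ∧ Fp w U ∧ ∀ v, cm w v ∈ U := by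
  obtain ⟨U, h1, h3, h4⟩ := exists_U hV (zpowers w)
    (by rw [Nat.card_zpowers]; exact h2.of_dvd_nat (orderOf_dvd_of_pow_eq_one hw))
  exact ⟨U, fun g hg => h1 g (norm_zp hg), fun u hu e => h3 u hu fun _ he => fx_zpowers e he,
    h4 w (mem_zpowers w)⟩

omit [Finite V] hp in
theorem ne_bot_of (h1 : w ≠ 1) (h : ∀ v, cm w v ∈ U) : U ≠ ⊥ := fun e =>
  h1 (MulEquiv.ext fun v => cm_eq_one.1 (e.le (h v)))

omit [Finite V] hp in
theorem comm_zp (h : Commute x w) : x * w * x⁻¹ ∈ zpowers w := by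
  rw [h.eq, mul_inv_cancel_right]; exact mem_zpowers w

omit [Finite V] hp in
theorem good_cj (h : U ⊓ fx y ≠ ⊥) (ia : Iv a U) : U ⊓ fx (a * y * a⁻¹) ≠ ⊥ := fun e => h (eq_bot_iff.2
  fun u hu => (map_eq_one_iff _ a.injective).1 (e.le ⟨ia u hu.1, (map_fx a y).le ⟨u, hu.2, rfl⟩⟩))

theorem nonab (hV : ∀ v : V, v * v = 1) (h5 : 5 ≤ p) (hE : ∀ e ∈ E, e ^ p = 1) (hc : Nat.card E = p ^ 3)
    (hna : ¬ IsMulCommutative E) (ha : a * a = 1) (hn : a ∈ normalizer (E : Set (MulAut V)))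
    (hf : ¬ ∀ e ∈ E, Commute a e) (hi : (fx a).index ≤ 16) : False := by
  have h2 : Odd p := hp.out.odd_of_ne_two (by omega)
  have hZ := (H48.center_of_card_cube hc hna).2
  obtain ⟨x, hx, ex, y, hy, exy⟩ : ∃ x ∈ E, a * x * a⁻¹ = x⁻¹ ∧ ∃ y ∈ E, ¬ Commute x y := by
    by_contra! h
    have c : ∀ y ∈ E, ∀ e ∈ E, Commute (y⁻¹ * (a * y * a⁻¹)) e := fun y hy =>
      h _ (mul_mem (inv_mem hy) (cj_mem hn hy)) (inv_elt ha y)
    have d : ⁅E, E⁆ ≤ centralizer {a} := commutator_le.2 fun u hu v hv => by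
      rw [mem_centralizer_singleton_iff, eq_comm, ← mul_inv_eq_iff_eq_mul, conjugate_commutatorElement,
        ← mul_inv_cancel_left u (a * u * a⁻¹), ← mul_inv_cancel_left v (a * v * a⁻¹)]
      generalize hc1 : u⁻¹ * (a * u * a⁻¹) = c1
      generalize hc2 : v⁻¹ * (a * v * a⁻¹) = c2
      have m2 : c2 ∈ E := hc2 ▸ mul_mem (inv_mem hv) (cj_mem hn hv)
      have k1 := hc1 ▸ c u hu
      have k2 := hc2 ▸ c v hv
      calc ⁅u * c1, v * c2⁆ = u * (c1 * (v * c2) * c1⁻¹) * u⁻¹ * (v * c2)⁻¹ := by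
            rw [commutatorElement_def]; group
        _ = u * v * (c2 * u⁻¹ * c2⁻¹) * v⁻¹ := by
            rw [(k1 _ (mul_mem hv m2)).eq, mul_inv_cancel_right]; group
        _ = _ := by rw [(k2 _ (inv_mem hu)).eq, mul_inv_cancel_right, commutatorElement_def]
    refine hf fun y hy => mul_inv_eq_iff_eq_mul.1 (inv_mul_eq_one.1 ?_).symm
    have m := mul_mem (inv_mem hy) (cj_mem hn hy)
    refine eq_one_of_inv h2 (hE _ m) ?_
    rw [← inv_elt ha y, ← mem_centralizer_singleton_iff.1 (d (hZ.ge ⟨m, fun e he => (c y hy e he).eq.symm⟩)),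
      mul_inv_cancel_right]
  obtain ⟨w, hw⟩ : ∃ w, w = ⁅x⁻¹, y⁆ := ⟨_, rfl⟩
  have wZ := hZ.le (hw ▸ commutator_mem_commutator (inv_mem hx) hy)
  have wc : ∀ e ∈ E, Commute e w := wZ.2
  have w1 : w ≠ 1 := fun e => exy (by simpa using commutatorElement_eq_one_iff_commute.1 (hw.symm.trans e))
  obtain ⟨U, iU, fU, cU⟩ := exists_U1 hV h2 (hE w wZ.1)
  have iE : ∀ e ∈ E, Iv e U := fun e he => iU e (comm_zp (wc e he))
  obtain ⟨i, hi0⟩ := line hV hp.out (by omega) (hE x hx) (hE w wZ.1) (wc x hx) (iE x hx) (iE w wZ.1) fU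
    (ne_bot_of w1 cU)
  have st : ∀ j, U ⊓ fx (x * w ^ (i + j)) ≠ ⊥ := fun j => by
    induction j with
    | zero => exact hi0
    | succ j ih =>
      have := good_cj ih (iE y hy)
      rwa [← conj_mul, ((wc y hy).pow_right _).eq, mul_inv_cancel_right,
        show y * x * y⁻¹ = x * w by rw [hw, commutatorElement_def]; group, mul_assoc, ← pow_succ'] at this
  have gd : ∀ j, U ⊓ fx (x * w ^ j) ≠ ⊥ := fun j => by
    have := st (j + (p - 1) * i)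
    rwa [show i + (j + (p - 1) * i) = p * i + j by
      obtain ⟨q, rfl⟩ : ∃ q, p = q + 1 := ⟨p - 1, by omega⟩
      simp only [Nat.add_sub_cancel]; ring, pow_add, pow_mul, hE w wZ.1, one_pow, one_mul] at this
  have rr : ∀ j k : ℕ, k ≠ 0 → k < 4 → R U (x * w ^ (j + k)) (x * w ^ j) := fun j k k0 k4 u hu e1 e2 => by
    refine fU u hu (fx_of_pow (hE w wZ.1) (Nat.coprime_of_lt_prime k0 (by omega) hp.out).symm
      ((x * w ^ j).injective ?_))
    rw [← MulAut.mul_apply, mul_assoc, ← pow_add, e1, e2]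
  have m : ∀ j, x * w ^ j ∈ E := fun j => mul_mem hx (pow_mem wZ.1 j)
  have cc : ∀ j k, Commute (x * w ^ j) (x * w ^ k) := fun j k =>
    (((Commute.refl x).mul_left ((wc x hx).symm.pow_left j))).mul_right ((wc _ (m j)).pow_right k)
  have big : ∀ j, 8 ≤ Nat.card (U ⊓ fx (x * w ^ j) : Subgroup V) := fun j =>
    (card_ge hV h5 (hE w wZ.1) ((iE w wZ.1).inf (iv_fx (wc _ (m j)).symm)) (fun u hu => fU u hu.1) (gd j)).1
  have h3 := card3 (iE _ (m 0)) (iE _ (m 1)) (cc 0 1) (cc 0 2) (cc 0 3) (cc 1 2) (cc 1 3)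
    (rr 0 1 (by omega) (by omega)) (rr 0 2 (by omega) (by omega)) (rr 0 3 (by omega) (by omega))
    (rr 1 1 (by omega) (by omega)) (rr 1 2 (by omega) (by omega)) (rr 2 1 (by omega) (by omega)).symm
  rw [pow_zero, mul_one] at h3
  have h4 := (Nat.mul_le_mul (big 1) (Nat.mul_le_mul (big 2) (big 3))).trans
    (h3.trans ((index_dih ha ex (hE x hx) h2).trans (Nat.pow_le_pow_left hi 2)))
  omega

theorem Ab.good_out (hV : ∀ v : V, v * v = 1) (h2 : p ≠ 2) (h : Ab p E) (iU : ∀ e ∈ E, Iv e U)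
    (cU : ∀ e ∈ E, ∀ v, H68Q.cm e v ∈ U) (hw : w ∈ E) (w1 : w ≠ 1) :
    ∃ y ∈ E, y ∉ zpowers w ∧ U ⊓ fx y ≠ ⊥ := by
  obtain ⟨U', i1, f1, c1⟩ := exists_U1 hV (hp.out.odd_of_ne_two h2) (h.pw w hw)
  obtain ⟨x, hx, xw⟩ := h.exists_out hw w1
  obtain ⟨i, hi⟩ := line (U := U ⊓ U') hV hp.out h2 (h.pw x hx) (h.pw w hw) (h.cm x hx w hw)
    ((iU x hx).inf (i1 x (comm_zp (h.cm x hx w hw)))) ((iU w hw).inf (i1 w (comm_zp (Commute.refl w))))
    (fun u hu => f1 u hu.2) (ne_bot_of w1 fun v => ⟨cU w hw v, c1 v⟩)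
  refine ⟨x * w ^ i, mul_mem hx (pow_mem hw i), fun e => xw ?_, fun e => hi (eq_bot_iff.2 fun u hu =>
    e.le ⟨hu.1.1, hu.2⟩)⟩
  exact (mul_mem_cancel_right (pow_mem (mem_zpowers w) i)).1 e

theorem Ab.r (h : Ab p E) (fU : ∀ u ∈ U, (∀ e ∈ E, e u = u) → u = 1) (hs : s ∈ E) (s1 : s ≠ 1) (ht : t ∈ E)
    (h2 : t ∉ zpowers s) : R U s t := fun u hu e1 e2 => fU u hu fun _ he =>
  ((h.gen hs s1 ht h2).ge.trans (sup_le (zpowers_le.2 (show s ∈ MulAction.stabilizer (MulAut V) u from e1))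
    (zpowers_le.2 (show t ∈ MulAction.stabilizer (MulAut V) u from e2)))) he

theorem Ab.ns (h : Ab p E) (s1 : s ≠ 1) (ht : t ∈ E) (h2 : t ∉ zpowers s) : s ∉ zpowers t :=
  fun e => h2 (zp_symm (h.pw t ht) e s1)

omit [Finite V] hp in
theorem ne_one_of (h : t ∉ zpowers s) : t ≠ 1 := by rintro rfl; exact h (one_mem _)

theorem Ab.core (hV : ∀ v : V, v * v = 1) (h5 : 5 ≤ p) (h : Ab p E)
    (hn : A ≤ normalizer (E : Set (MulAut V))) (hA : ∀ a ∈ A, a * a = 1) (h1 : A ≠ ⊥)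
    (hf : ∀ a ∈ A, (∀ e ∈ E, Commute a e) → a = 1) (h4 : Nat.card A ≤ 4)
    (hi : ∀ a ∈ A, (fx a).index ≤ Nat.card A ^ 2) :
    p = 5 ∧ ∀ r : ℕ, r.Prime → r ≠ 2 → r ≠ 5 → ∀ g ∈ normalizer (E : Set (MulAut V)),
      (∀ e ∈ E, Commute (g ^ r) e) → ∀ e ∈ E, Commute g e := by
  have p2 : p ≠ 2 := by omega
  have h2 : Odd p := hp.out.odd_of_ne_two p2
  obtain ⟨U, iN, fU, cU⟩ := exists_U hV E (by rw [h.card]; exact h2.pow)
  have iU : ∀ e ∈ E, Iv e U := fun e he => iN e (le_normalizer he)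
  obtain ⟨w, hw, w1⟩ := h.exists_ne
  obtain ⟨y, hy, yw, gy⟩ := h.good_out hV p2 iU cU hw w1
  have y1 := ne_one_of yw
  have c2 : ∀ x ∈ E, ∀ s ∈ E, ∀ t ∈ E, s ≠ 1 → t ∉ zpowers s → x ∉ zpowers s → x ∉ zpowers t →
      Nat.card (U ⊓ fx s : Subgroup V) * Nat.card (U ⊓ fx t : Subgroup V) ≤ (fx x).index :=
    fun x hx s hs t ht s1 a b c => card2 (iU x hx) (h.cm x hx s hs) (h.cm x hx t ht) (h.r fU hs s1 hx b)
      (h.r fU ht (ne_one_of a) hx c) (h.r fU hs s1 ht a)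
  have out : ∀ s ∈ E, ∀ t ∈ E, s ≠ 1 → t ∉ zpowers s → ∀ k, k = 1 ∨ k = 2 →
      s * t ^ k ∉ zpowers s ∧ s * t ^ k ∉ zpowers t := fun s hs t ht s1 a k hk =>
    ⟨fun e => a (zpowers_le.2 ((mul_mem_cancel_left (mem_zpowers s)).1 e) (zp_symm (h.pw t ht)
      (pow_mem (mem_zpowers t) k) fun e => ne_one_of a (orderOf_eq_one_iff.1 (Nat.eq_one_of_dvd_coprimes
        (Nat.coprime_of_lt_prime (by omega) (by omega) hp.out) (orderOf_dvd_of_pow_eq_one (h.pw t ht))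
        (orderOf_dvd_of_pow_eq_one e))))),
      fun e => h.ns s1 ht a ((mul_mem_cancel_right (pow_mem (mem_zpowers t) k)).1 e)⟩
  have hd : (∃ z ∈ A, (∀ e ∈ E, z * e * z⁻¹ = e⁻¹) ∧ ∀ x ∈ E, (fx x).index ≤ 256) ∨
      ∃ a ∈ A, ∃ x ∈ E, x ≠ 1 ∧ a * x * a⁻¹ = x⁻¹ ∧ (fx x).index ≤ 16 := by
    rcases h.dich h2 hn hA hf with ⟨z, hz, e⟩ | e
    · exact .inl ⟨z, hz, e, fun x hx => (index_dih (hA z hz) (e x hx) (h.pw x hx) h2).trans
        (Nat.pow_le_pow_left ((hi z hz).trans (Nat.pow_le_pow_left h4 2)) 2)⟩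
    · obtain ⟨⟨a, ha⟩, a1⟩ := ne_bot_iff_exists_ne_one.1 h1
      obtain ⟨u, hu, eu⟩ : ∃ u ∈ E, u⁻¹ * (a * u * a⁻¹) ≠ 1 := by
        by_contra! h4
        exact a1 (Subtype.ext (hf a ha fun e he => mul_inv_eq_iff_eq_mul.1 (inv_mul_eq_one.1 (h4 e he)).symm))
      have m := mul_mem (inv_mem hu) (cj_mem (hn ha) hu)
      exact .inr ⟨a, ha, _, m, eu, inv_elt (hA a ha) u, (index_dih (hA a ha) (inv_elt (hA a ha) u) (h.pw _ m)
        h2).trans (Nat.pow_le_pow_left ((hi a ha).trans (Nat.pow_le_pow_left e 2)) 2)⟩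
  have p5 : p = 5 := by
    by_contra p5
    rcases hd with ⟨z, hz, e, b⟩ | ⟨a, ha, x, hx, x1, e, b⟩
    · obtain ⟨t, ht, ty, gt⟩ := h.good_out hV p2 iU cU hy y1
      obtain ⟨o1, o2⟩ := out y hy t ht y1 ty 1 (.inl rfl)
      have m := mul_mem hy (pow_mem ht 1)
      have big : ∀ s ∈ E, s ≠ 1 → y * t ^ 1 ∉ zpowers s → U ⊓ fx s ≠ ⊥ →
          64 ≤ Nat.card (U ⊓ fx s : Subgroup V) := fun s hs s1 o g =>
        card_ge' hV h5 p5 (hA z hz) (e _ m) (h.pw _ m) ((iN z (hn hz)).inf (iv_fx_inv (e s hs)))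
          ((iU _ m).inf (iv_fx (h.cm _ m s hs))) (h.r fU hs s1 m o).fp g
      have := (Nat.mul_le_mul (big y hy y1 o1 gy) (big t ht (ne_one_of ty) o2 gt)).trans
        ((c2 _ m y hy t ht y1 ty o1 o2).trans (b _ m))
      omega
    · obtain ⟨U', i1, f1, c1⟩ := exists_U1 hV h2 (h.pw x hx)
      have := (card_ge' hV h5 p5 (hA a ha) e (h.pw x hx) (i1 a (e ▸ inv_mem (mem_zpowers x)))
        (i1 x (comm_zp (Commute.refl x))) f1 (ne_bot_of x1 c1)).trans ((card_le_index f1).trans b)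
      omega
  refine ⟨p5, fun r hr r2 r5 g hg hc => by_contra fun hnc => ?_⟩
  have big : ∀ s ∈ E, s ≠ 1 → U ⊓ fx s ≠ ⊥ → 16 ≤ Nat.card (U ⊓ fx s : Subgroup V) := fun s hs s1 g => by
    obtain ⟨t, ht, o⟩ := h.exists_out hs s1
    exact (card_ge hV h5 (h.pw t ht) ((iU t ht).inf (iv_fx (h.cm t ht s hs))) (h.r fU hs s1 ht o).fp g).2 p5
  have nl : ∀ s ∈ E, s ≠ 1 → g * s * g⁻¹ ∉ zpowers s := fun s hs s1 e =>
    hnc (Ab.no_line hr r2 r5 (p5 ▸ h) hg hc hs s1 e)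
  obtain ⟨s, es⟩ : ∃ s, s = g * y * g⁻¹ := ⟨_, rfl⟩
  obtain ⟨t, et⟩ : ∃ t, t = g * s * g⁻¹ := ⟨_, rfl⟩
  have hs : s ∈ E := es ▸ cj_mem hg hy
  have ht : t ∈ E := et ▸ cj_mem hg hs
  have sy : s ∉ zpowers y := es ▸ nl y hy y1
  have s1 := ne_one_of sy
  have ts : t ∉ zpowers s := et ▸ nl s hs s1
  have t1 := ne_one_of ts
  have ty : t ∉ zpowers y := fun e => by
    have c := Ab.no_line (a := g * g) hr r2 r5 (p5 ▸ h) (mul_mem hg hg) (fun e he => by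
      rw [(Commute.refl g).mul_pow]; exact (hc e he).mul_left (hc e he)) hy y1
      (by rwa [et, es, show g * (g * y * g⁻¹) * g⁻¹ = g * g * y * (g * g)⁻¹ by group] at e)
    obtain ⟨k, rfl⟩ := hr.odd_of_ne_two r2
    refine hnc fun e he => ?_
    have c3 := (((c e he).pow_left k).inv_left).mul_left (hc e he)
    rwa [pow_succ, pow_mul, sq, inv_mul_cancel_left] at c3
  have by' := big y hy y1 gy
  have gs : U ⊓ fx s ≠ ⊥ := es ▸ good_cj gy (iN g hg)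
  have bs := big s hs s1 gs
  have bt := big t ht t1 (et ▸ good_cj gs (iN g hg))
  rcases hd with ⟨z, hz, e, b⟩ | ⟨a, ha, x, hx, x1, e, b⟩
  · obtain ⟨k, hk, o⟩ : ∃ k, (k = 1 ∨ k = 2) ∧ y * s ^ k ∉ zpowers t := by
      by_contra! o
      refine h.ns s1 ht ts ?_
      have := mul_mem (inv_mem (o 1 (.inl rfl))) (o 2 (.inr rfl))
      rwa [show (y * s ^ 1)⁻¹ * (y * s ^ 2) = s by group] at this
    obtain ⟨o1, o2⟩ := out y hy s hs y1 sy k hk
    have m := mul_mem hy (pow_mem hs k)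
    have := (Nat.mul_le_mul by' (Nat.mul_le_mul bs bt)).trans ((card3 (iU _ m) (iU y hy) (h.cm _ m y hy)
      (h.cm _ m s hs) (h.cm _ m t ht) (h.cm y hy s hs) (h.cm y hy t ht) (h.r fU hy y1 m o1) (h.r fU hs s1 m o2)
      (h.r fU ht t1 m o) (h.r fU hy y1 hs sy).symm (h.r fU hy y1 ht ty).symm (h.r fU hs s1 ht ts)).trans (b _ m))
    omega
  · have two : ∀ u ∈ E, ∀ v ∈ E, u ≠ 1 → v ∉ zpowers u → x ∈ zpowers u → x ∉ zpowers v :=
      fun u hu v hv u1 o e1 e2 => o (zpowers_le.2 e1 (zp_symm (h.pw v hv) e2 x1))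
    by_cases x0 : x ∈ zpowers y
    · have := (Nat.mul_le_mul bs bt).trans ((c2 x hx s hs t ht s1 ts (two y hy s hs y1 sy x0)
        (two y hy t ht y1 ty x0)).trans b)
      omega
    by_cases x2 : x ∈ zpowers s
    · have := (Nat.mul_le_mul by' bt).trans ((c2 x hx y hy t ht y1 ty x0 (two s hs t ht s1 ts x2)).trans b)
      omega
    · have := (Nat.mul_le_mul by' bs).trans ((c2 x hx y hy s hs y1 sy x0 x2).trans b)
      omega

theorem core {V : Type*} [Group V] [Finite V] (hV : ∀ v : V, v * v = 1) (h5 : 5 ≤ p) {E A : Subgroup (MulAut V)}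
    (hE : ∀ e ∈ E, e ^ p = 1) (hc : (Nat.card E = p ^ 2 ∧ IsMulCommutative E) ∨
      (Nat.card E = p ^ 3 ∧ ¬ IsMulCommutative E))
    (hn : A ≤ normalizer (E : Set (MulAut V))) (hA : ∀ a ∈ A, a * a = 1) (h1 : A ≠ ⊥)
    (hf : ∀ a ∈ A, (∀ e ∈ E, Commute a e) → a = 1) (h4 : Nat.card A ≤ 4) {C : Subgroup V}
    (hC : ∀ a ∈ A, ∀ v ∈ C, a v = v) (hi : C.index ≤ Nat.card A ^ 2) :
    p = 5 ∧ ∀ r : ℕ, r.Prime → r ≠ 2 → r ≠ 5 → ∀ g ∈ normalizer (E : Set (MulAut V)),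
      (∀ e ∈ E, Commute (g ^ r) e) → ∀ e ∈ E, Commute g e := by
  letI : CommGroup V := { (inferInstance : Group V) with
    mul_comm := fun a b => by
      rw [← inv_eq_of_mul_eq_one_right (hV (a * b)), mul_inv_rev, inv_eq_of_mul_eq_one_right (hV a),
        inv_eq_of_mul_eq_one_right (hV b)] }
  have hi' : ∀ a ∈ A, (fx a).index ≤ Nat.card A ^ 2 := fun a ha =>
    (index_antitone (show C ≤ fx a from hC a ha)).trans hi
  rcases hc with hc | hc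
  · exact Ab.core hV h5 ⟨hE, fun s hs t ht => congrArg Subtype.val (hc.2.is_comm.comm ⟨s, hs⟩ ⟨t, ht⟩), hc.1⟩
      hn hA h1 hf h4 hi'
  · obtain ⟨⟨a, ha⟩, a1⟩ := ne_bot_iff_exists_ne_one.1 h1
    exact (nonab hV h5 hE hc.1 hc.2 (hA a ha) (hn ha) (fun e => a1 (Subtype.ext (hf a ha e)))
      ((hi' a ha).trans (Nat.pow_le_pow_left h4 2))).elim

end H68Q
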